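import Cfsg.Agent.Lib.Helper44.H1.Defs

/-! Farm H1 piece A0: basic facts on `act`. -/

set_option autoImplicit false

namespace Cfsg.Agent.Lib.Helper44.H1

open QuadraticMap Matrix

variable {ι : Type} [Fintype ι] [DecidableEq ι] (Q : QuadraticForm (ZMod 2) (ι → ZMod 2))

theorem act_one (v : ι → ZMod 2) : act Q 1 v = v := by
  simp [act]

theorem act_mul (g h : ↥(Cfsg.isometryGroup (ZMod 2) ⇑Q)) (v : ι → ZMod 2) :
    act Q (g * h) v = act Q g (act Q h v) := by
  simp [act, Matrix.mulVec_mulVec]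

theorem act_add (g : ↥(Cfsg.isometryGroup (ZMod 2) ⇑Q)) (v w : ι → ZMod 2) :
    act Q g (v + w) = act Q g v + act Q g w := by
  simp [act, Matrix.mulVec_add]

theorem add_self_V (v : ι → ZMod 2) : v + v = 0 := by
  ext i
  have : ∀ a : ZMod 2, a + a = 0 := by decide
  exact this _

theorem act_reflElt {u : ι → ZMod 2} (hu : Q u = 1) (x : ι → ZMod 2) :
    act Q (reflElt Q u) x = x + polar Q u x • u := by
  rw [act, reflElt_coe, reflectionMatrix_mulVec, refl_apply, hu, inv_one, one_mul, sub_eq_add_neg]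
  congr 1
  ext i
  have : ∀ a : ZMod 2, -a = a := by decide
  exact this _

theorem Q_eq_one_of_ne {u : ι → ZMod 2} (hu : Q u ≠ 0) : Q u = 1 := by
  have : ∀ a : ZMod 2, a ≠ 0 → a = 1 := by decide
  exact this _ hu

theorem polar_self_V (u : ι → ZMod 2) : polar Q u u = 0 := by
  rw [polar_self]
  have : (2 : ZMod 2) = 0 := by decide
  simp [this]

end Cfsg.Agent.Lib.Helper44.H1
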