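import Cfsg.Agent.Lib.Helper44.H1.Defs

/-! Farm H1 piece AFF. -/

set_option autoImplicit false

namespace Cfsg.Agent.Lib.Helper44.H1

open QuadraticMap Matrix

variable {ι : Type} [Fintype ι] [DecidableEq ι] {Q : QuadraticForm (ZMod 2) (ι → ZMod 2)}

theorem AFF_w0 (hQ : (polarBilin Q).Nondegenerate) {u y : ι → ZMod 2} (hy0 : y ≠ 0)
    (hyu : y ≠ u) : ∃ w, polar Q w u = 0 ∧ polar Q w y = 1 := by
  have z2 : ∀ a : ZMod 2, a = 0 ∨ a = 1 := by decide
  obtain ⟨w1, hw1⟩ := polar_nondeg_exists hQ hy0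
  rcases z2 (polar Q w1 u) with h0 | h1
  · exact ⟨w1, h0, hw1⟩
  · have hne : y + u ≠ 0 := by
      intro h
      apply hyu
      have h' : y = -u := eq_neg_of_add_eq_zero_left h
      rw [h']
      funext i
      exact ZMod.neg_eq_self_mod_two (u i)
    obtain ⟨w2, hw2⟩ := polar_nondeg_exists hQ hne
    rw [polar_add_right] at hw2
    rcases z2 (polar Q w2 u) with h20 | h21
    · refine ⟨w2, h20, ?_⟩
      rw [h20, add_zero] at hw2
      exact hw2
    · have h2y : polar Q w2 y = 0 := by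
        rw [h21] at hw2
        rcases z2 (polar Q w2 y) with h | h
        · exact h
        · rw [h] at hw2
          exact absurd hw2 (by decide)
      refine ⟨w1 + w2, ?_, ?_⟩
      · rw [polar_add_left, h1, h21]; decide
      · rw [polar_add_left, hw1, h2y]; decide

theorem exists_aff (hQ : (polarBilin Q).Nondegenerate) {u y : ι → ZMod 2} (hu : Q u = 1)
    (huy : polar Q u y = 0) (hy0 : y ≠ 0) (hyu : y ≠ u) :
    ∃ w, Q w = 1 ∧ polar Q u w = 0 ∧ polar Q w y = 1 := by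
  have z2 : ∀ a : ZMod 2, a = 0 ∨ a = 1 := by decide
  obtain ⟨w0, h0u, h0y⟩ := AFF_w0 hQ hy0 hyu
  rcases z2 (Q w0) with hq | hq
  · refine ⟨w0 + u, ?_, ?_, ?_⟩
    · rw [QuadraticMap.map_add (⇑Q), hq, hu, h0u]; decide
    · rw [polar_add_right, polar_comm (⇑Q) u w0, h0u, polar_self, hu]; decide
    · rw [polar_add_left, h0y, huy]; decide
  · exact ⟨w0, hq, by rw [polar_comm]; exact h0u, h0y⟩

end Cfsg.Agent.Lib.Helper44.H1
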