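import Cfsg.Agent.Lib.Helper44.H1.A0

/-! Farm H1 piece B2 (uses A0).
refl_triangle: r_u r_w r_u = r_{u+w} when Q u = Q w = polar u w = 1.  Apply (isoEquiv Q).injective, map_mul, isoEquiv_reflElt, Subtype.ext; then `conj_refl (refl_mem Q u) w : refl u * refl w * (refl u)⁻¹ = refl (refl u w)`
 (Helper44.Orth), (refl u)⁻¹ = refl u (refl_mul_self), refl u w = w - (Q u)⁻¹ * polar u w • u = w + u  (refl_apply; char 2).   See the proof of reflElt_comm in Helper44/GraphInv.lean for the pattern.
coc_triangle: if f r_u = a • u, f r_w = b • w then f (r_u r_w r_u) = a u + act r_u (b w) + act (r_u r_w) (a u) = a u + b (w + u) + a * act r_u (u + w) = a u + b (u + w) + a w = (a + b)(u + w)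
 (act_reflElt: act r_w u = u + w, act r_u (u + w) = u + w + polar u (u+w) u = w, act r_u w = w + u; act is additive and commutes with • : act Q g (c • x) = c • act Q g x by Matrix.mulVec_smul). -/

set_option autoImplicit false

namespace Cfsg.Agent.Lib.Helper44.H1

open QuadraticMap Matrix

variable {ι : Type} [Fintype ι] [DecidableEq ι] {Q : QuadraticForm (ZMod 2) (ι → ZMod 2)}

theorem B2_ext (g h : ↥(Cfsg.isometryGroup (ZMod 2) ⇑Q)) (hgh : ∀ x, act Q g x = act Q h x) :
    g = h := by
  apply Subtype.ext
  apply Units.ext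
  apply Matrix.toLin'.injective
  apply LinearMap.ext
  intro x
  rw [Matrix.toLin'_apply, Matrix.toLin'_apply]
  exact hgh x

theorem refl_triangle {u w : ι → ZMod 2} (hu : Q u = 1) (hw : Q w = 1) (huw : polar Q u w = 1) :
    reflElt Q u * reflElt Q w * reflElt Q u = reflElt Q (u + w) := by
  have hwu : polar Q w u = 1 := by rw [polar_comm]; exact huw
  have hQuw : Q (u + w) = 1 := by
    have h0 : polar Q u w = Q (u + w) - Q u - Q w := rfl
    rw [hu, hw, huw] at h0
    have h2 : Q (u + w) = 1 + 1 + 1 := by linear_combination -h0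
    rw [h2]; decide
  apply B2_ext
  intro x
  rw [act_mul, act_mul, act_reflElt Q hQuw]
  simp only [act_reflElt Q hu, act_reflElt Q hw, polar_add_right, polar_add_left,
    polar_smul_right, polar_self_V, huw, hwu, smul_eq_mul]
  generalize polar Q u x = a
  generalize polar Q w x = b
  ext i
  simp only [Pi.add_apply, Pi.smul_apply, smul_eq_mul]
  generalize u i = p
  generalize w i = q
  generalize x i = r
  revert a b p q r
  decide

theorem coc_triangle {f : ↥(Cfsg.isometryGroup (ZMod 2) ⇑Q) → (ι → ZMod 2)} (hf : IsCoc Q f)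
    {u w : ι → ZMod 2} (hu : Q u = 1) (hw : Q w = 1) (huw : polar Q u w = 1) (a b : ZMod 2)
    (ha : f (reflElt Q u) = a • u) (hb : f (reflElt Q w) = b • w) :
    f (reflElt Q (u + w)) = (a + b) • (u + w) := by
  have hwu : polar Q w u = 1 := by rw [polar_comm]; exact huw
  rw [← refl_triangle hu hw huw, hf, hf, ha, hb, act_mul]
  simp only [act_reflElt Q hu, act_reflElt Q hw, polar_add_right, polar_add_left,
    polar_smul_right, polar_self_V, huw, hwu, smul_eq_mul]
  clear ha hb
  ext i
  simp only [Pi.add_apply, Pi.smul_apply, smul_eq_mul]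
  generalize u i = p
  generalize w i = q
  revert a b p q
  decide

end Cfsg.Agent.Lib.Helper44.H1
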