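import Cfsg.Agent.Lib.Helper44.H1.A0
import Cfsg.Agent.Lib.Helper44.H1.AFF
import Cfsg.Agent.Lib.Helper44.H1.B2

/-! Farm H1 piece B1 (uses A0, AFF).  A cocycle of O(Q) sends the reflection r_u into {0, u}.
PROOF. r := reflElt Q u, y := f r.  f 1 = 0 (hf 1 1, act_one).  r * r = 1 (reflElt_mul_self, Helper44.SOIndex — or prove via isometryGroup_ext): 0 = y + act r y, so act r y = y,
 i.e. (act_reflElt) polar u y • u = 0, so polar u y = 0 (u ≠ 0 because Q u = 1).
 Suppose y ≠ 0 and y ≠ u.  exists_aff: w with Q w = 1, polar u w = 0, polar w y = 1.  s := reflElt Q w commutes with r (reflElt_comm Q (h : polar Q u w = 0), Helper44.GraphInv).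
 f (s * r) = f s + act s y = f s + y + w;  f (r * s) = y + act r (f s) = y + f s + polar u (f s) • u.   Hence w = polar u (f s) • u ∈ {0, u}.
 w = 0 contradicts Q w = 1;  w = u contradicts polar w y = 1 ≠ 0 = polar u y. -/

set_option autoImplicit false

namespace Cfsg.Agent.Lib.Helper44.H1

open QuadraticMap Matrix

variable {ι : Type} [Fintype ι] [DecidableEq ι] {Q : QuadraticForm (ZMod 2) (ι → ZMod 2)}

theorem coc_refl (hQ : (polarBilin Q).Nondegenerate)
    {f : ↥(Cfsg.isometryGroup (ZMod 2) ⇑Q) → (ι → ZMod 2)} (hf : IsCoc Q f)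
    {u : ι → ZMod 2} (hu : Q u = 1) : f (reflElt Q u) = 0 ∨ f (reflElt Q u) = u := by
  have h01 : ∀ a : ZMod 2, a = 0 ∨ a = 1 := by decide
  have hu0 : u ≠ 0 := by rintro rfl; rw [map_zero] at hu; exact zero_ne_one hu
  obtain ⟨y, hy⟩ : ∃ y, y = f (reflElt Q u) := ⟨_, rfl⟩
  rw [← hy]
  have hf1 : f 1 = 0 := by
    have := hf 1 1
    rw [mul_one, act_one] at this
    simpa using this
  have hrr : reflElt Q u * reflElt Q u = 1 := by
    apply B2_ext
    intro x
    rw [act_mul, act_one]
    simp only [act_reflElt Q hu, polar_add_right, polar_smul_right, polar_self_V, smul_eq_mul,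
      mul_zero, add_zero]
    rw [add_assoc, add_self_V, add_zero]
  have h1 := hf (reflElt Q u) (reflElt Q u)
  rw [hrr, hf1, ← hy, act_reflElt Q hu] at h1
  have huy : polar Q u y = 0 := by
    rcases h01 (polar Q u y) with h | h
    · exact h
    · exfalso
      rw [h, one_smul, ← add_assoc, add_self_V, zero_add] at h1
      exact hu0 h1.symm
  by_contra hcon
  push Not at hcon
  obtain ⟨hy0, hyu⟩ := hcon
  obtain ⟨w, hw, huw, hwy⟩ := exists_aff hQ hu huy hy0 hyu
  have hcomm := reflElt_comm Q huw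
  have e1 := hf (reflElt Q w) (reflElt Q u)
  have e2 := hf (reflElt Q u) (reflElt Q w)
  rw [← hy, act_reflElt Q hw, hwy, one_smul] at e1
  rw [← hy, act_reflElt Q hu] at e2
  rw [hcomm, e1] at e2
  have e3 : w = polar Q u (f (reflElt Q w)) • u := by
    have : f (reflElt Q w) + y + w
        = f (reflElt Q w) + y + polar Q u (f (reflElt Q w)) • u := by
      rw [add_assoc, e2]; abel
    exact add_left_cancel this
  rcases h01 (polar Q u (f (reflElt Q w))) with h | h
  · rw [h, zero_smul] at e3
    rw [e3, map_zero] at hw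
    exact zero_ne_one hw
  · rw [h, one_smul] at e3
    rw [e3, huy] at hwy
    exact zero_ne_one hwy

end Cfsg.Agent.Lib.Helper44.H1
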