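import Cfsg.Agent.Lib.Helper44.H1.Defs

/-! Farm H1 piece CK: a generic verified closure checker. -/

set_option autoImplicit false

namespace Cfsg.Agent.Lib.Helper44.H1

open QuadraticMap Matrix

/-- process the derivation list `D`: add `u + w` when `u, w` are already known and `ok u w` -/
def run {V : Type} [DecidableEq V] [Add V] (ok : V → V → Bool) : List V → List (V × V) → List V
  | K, [] => K
  | K, p :: D => if p.1 ∈ K ∧ p.2 ∈ K ∧ ok p.1 p.2 = true then run ok ((p.1 + p.2) :: K) D else run ok K D

theorem run_sound {V : Type} [DecidableEq V] [Add V] (ok : V → V → Bool) (P : V → Prop)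
    (hP : ∀ u w, ok u w = true → P u → P w → P (u + w)) (D : List (V × V)) (K : List V)
    (hK : ∀ x ∈ K, P x) : ∀ x ∈ run ok K D, P x := by
  induction D generalizing K with
  | nil => simpa [run] using hK
  | cons p D ih =>
    unfold run
    split
    · rename_i h
      apply ih
      intro x hx
      rcases List.mem_cons.1 hx with rfl | hx
      · exact hP _ _ h.2.2 (hK _ h.1) (hK _ h.2.1)
      · exact hK x hx
    · exact ih K hK

/-- the test used in the certificates -/
def okB {V : Type} (q : V → ZMod 2) (bf : V → V → ZMod 2) (u w : V) : Bool :=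
  decide (q u = 1 ∧ q w = 1 ∧ bf u w = 1)

variable {ι : Type} [Fintype ι] [DecidableEq ι]

theorem clo_of_cert (Q : QuadraticForm (ZMod 2) (ι → ZMod 2)) (q : (ι → ZMod 2) → ZMod 2)
    (bf : (ι → ZMod 2) → (ι → ZMod 2) → ZMod 2) (hq : ∀ x, Q x = q x)
    (hb : ∀ x y, polar Q x y = bf x y) {k : ℕ} (b d : Fin k → (ι → ZMod 2))
    (hd : ∀ i j, bf (d i) (b j) = if i = j then 1 else 0) (D : List ((ι → ZMod 2) × (ι → ZMod 2)))
    (hcov : ∀ u, q u = 1 → u ∈ run (okB q bf) (List.ofFn b) D) : Clo Q := by
  intro c hc
  let v : ι → ZMod 2 := ∑ i, c (b i) • d i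
  have hv : ∀ j, polar Q v (b j) = c (b j) := by
    intro j
    have h0 : polar Q v (b j) = ∑ i, c (b i) * polar Q (d i) (b j) := by
      have h1 : polar Q v (b j) = (polarBilin Q) v (b j) := rfl
      rw [h1]
      simp only [v, map_sum, map_smul, LinearMap.sum_apply, LinearMap.smul_apply,
        polarBilin_apply_apply, smul_eq_mul]
    rw [h0]
    simp only [hb, hd]
    simp
  refine ⟨v, ?_⟩
  have key : ∀ x ∈ run (okB q bf) (List.ofFn b) D, c x + polar Q v x = 0 := by
    apply run_sound (okB q bf) (fun x => c x + polar Q v x = 0)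
    · intro u w hok hu hw
      simp only [okB, decide_eq_true_eq] at hok
      obtain ⟨h1, h2, h3⟩ := hok
      rw [← hq] at h1 h2
      rw [← hb] at h3
      show c (u + w) + polar Q v (u + w) = 0
      rw [hc u w h1 h2 h3, polar_add_right]
      calc c u + c w + (polar Q v u + polar Q v w)
          = (c u + polar Q v u) + (c w + polar Q v w) := by ring
        _ = 0 := by rw [hu, hw, add_zero]
    · intro x hx
      rw [List.mem_ofFn] at hx
      obtain ⟨j, rfl⟩ := hx
      show c (b j) + polar Q v (b j) = 0
      rw [hv j]; exact CharTwo.add_self_eq_zero _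
  intro u hu
  have h := key u (hcov u (by rw [← hq]; exact hu))
  exact (CharTwo.add_eq_zero).1 h

end Cfsg.Agent.Lib.Helper44.H1
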