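import Cfsg.Agent.Lib.Helper44.H1.Defs

/-! Farm H1 piece QB: explicit computable formulas for the three forms and their polar forms.
(formalized by helper67) -/

set_option autoImplicit false

namespace Cfsg.Agent.Lib.Helper44.H1

open QuadraticMap Matrix

def qP4 (x : Fin 4 ⊕ Fin 4 → ZMod 2) : ZMod 2 :=
  x (.inl 0) * x (.inr 0) + x (.inl 1) * x (.inr 1) + x (.inl 2) * x (.inr 2) + x (.inl 3) * x (.inr 3)

def bP4 (x y : Fin 4 ⊕ Fin 4 → ZMod 2) : ZMod 2 :=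
  x (.inl 0) * y (.inr 0) + x (.inr 0) * y (.inl 0) + x (.inl 1) * y (.inr 1) + x (.inr 1) * y (.inl 1)
  + x (.inl 2) * y (.inr 2) + x (.inr 2) * y (.inl 2) + x (.inl 3) * y (.inr 3) + x (.inr 3) * y (.inl 3)

theorem hqP4 (x : Fin 4 ⊕ Fin 4 → ZMod 2) : plusQF 4 (ZMod 2) x = qP4 x := by
  rw [plusQF_apply, Fin.sum_univ_four]; rfl

theorem hbP4 (x y : Fin 4 ⊕ Fin 4 → ZMod 2) : polar (plusQF 4 (ZMod 2)) x y = bP4 x y := by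
  unfold polar
  rw [hqP4, hqP4, hqP4]
  simp only [qP4, bP4, Pi.add_apply]
  ring

def qM2 (x : (Fin 2 ⊕ Fin 2) ⊕ Fin 2 → ZMod 2) : ZMod 2 :=
  x (.inl (.inl 0)) * x (.inl (.inr 0)) + x (.inl (.inl 1)) * x (.inl (.inr 1))
  + x (.inr 0) * x (.inr 0) + x (.inr 0) * x (.inr 1) + x (.inr 1) * x (.inr 1)

def bM2 (x y : (Fin 2 ⊕ Fin 2) ⊕ Fin 2 → ZMod 2) : ZMod 2 :=
  x (.inl (.inl 0)) * y (.inl (.inr 0)) + x (.inl (.inr 0)) * y (.inl (.inl 0))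
  + x (.inl (.inl 1)) * y (.inl (.inr 1)) + x (.inl (.inr 1)) * y (.inl (.inl 1))
  + x (.inr 0) * y (.inr 1) + x (.inr 1) * y (.inr 0)

theorem hqM2 (x : (Fin 2 ⊕ Fin 2) ⊕ Fin 2 → ZMod 2) : minusQF 2 (ZMod 2) 1 1 x = qM2 x := by
  rw [minusQF_apply, Fin.sum_univ_two]
  simp only [qM2]
  ring

theorem hbM2 (x y : (Fin 2 ⊕ Fin 2) ⊕ Fin 2 → ZMod 2) : polar (minusQF 2 (ZMod 2) 1 1) x y = bM2 x y := by
  have h2 : (2 : ZMod 2) = 0 := by decide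
  unfold polar
  rw [hqM2, hqM2, hqM2]
  simp only [qM2, bM2, Pi.add_apply]
  linear_combination (x (.inr 0) * y (.inr 0) + x (.inr 1) * y (.inr 1)) * h2

def qM1 (x : (Fin 1 ⊕ Fin 1) ⊕ Fin 2 → ZMod 2) : ZMod 2 :=
  x (.inl (.inl 0)) * x (.inl (.inr 0))
  + x (.inr 0) * x (.inr 0) + x (.inr 0) * x (.inr 1) + x (.inr 1) * x (.inr 1)

def bM1 (x y : (Fin 1 ⊕ Fin 1) ⊕ Fin 2 → ZMod 2) : ZMod 2 :=
  x (.inl (.inl 0)) * y (.inl (.inr 0)) + x (.inl (.inr 0)) * y (.inl (.inl 0))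
  + x (.inr 0) * y (.inr 1) + x (.inr 1) * y (.inr 0)

theorem hqM1 (x : (Fin 1 ⊕ Fin 1) ⊕ Fin 2 → ZMod 2) : minusQF 1 (ZMod 2) 1 1 x = qM1 x := by
  rw [minusQF_apply, Fin.sum_univ_one]
  simp only [qM1]
  ring

theorem hbM1 (x y : (Fin 1 ⊕ Fin 1) ⊕ Fin 2 → ZMod 2) : polar (minusQF 1 (ZMod 2) 1 1) x y = bM1 x y := by
  have h2 : (2 : ZMod 2) = 0 := by decide
  unfold polar
  rw [hqM1, hqM1, hqM1]
  simp only [qM1, bM1, Pi.add_apply]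
  linear_combination (x (.inr 0) * y (.inr 0) + x (.inr 1) * y (.inr 1)) * h2

end Cfsg.Agent.Lib.Helper44.H1
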