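import Cfsg.Agent.Lib.Helper44.H1.CK
import Cfsg.Agent.Lib.Helper44.H1.QB

/-! Farm H1: the closure certificate M1 (generated). -/

set_option autoImplicit false
set_option maxRecDepth 100000

namespace Cfsg.Agent.Lib.Helper44.H1

open QuadraticMap Matrix

def basM1 : Fin 4 → ((Fin 1 ⊕ Fin 1) ⊕ Fin 2 → ZMod 2) := ![Sum.elim (Sum.elim ![1] ![0]) ![1,0], Sum.elim (Sum.elim ![0] ![0]) ![1,0], Sum.elim (Sum.elim ![0] ![0]) ![0,1], Sum.elim (Sum.elim ![1] ![1]) ![0,0]]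

def duaM1 : Fin 4 → ((Fin 1 ⊕ Fin 1) ⊕ Fin 2 → ZMod 2) := ![Sum.elim (Sum.elim ![1] ![1]) ![0,0], Sum.elim (Sum.elim ![1] ![1]) ![0,1], Sum.elim (Sum.elim ![0] ![0]) ![1,0], Sum.elim (Sum.elim ![1] ![0]) ![0,0]]

def derM1 : List (((Fin 1 ⊕ Fin 1) ⊕ Fin 2 → ZMod 2) × ((Fin 1 ⊕ Fin 1) ⊕ Fin 2 → ZMod 2)) := [(Sum.elim (Sum.elim ![1] ![0]) ![1,0], Sum.elim (Sum.elim ![0] ![0]) ![0,1]),
  (Sum.elim (Sum.elim ![0] ![0]) ![1,0], Sum.elim (Sum.elim ![0] ![0]) ![0,1]),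
  (Sum.elim (Sum.elim ![0] ![0]) ![1,0], Sum.elim (Sum.elim ![1] ![0]) ![1,1]),
  (Sum.elim (Sum.elim ![1] ![1]) ![0,0], Sum.elim (Sum.elim ![1] ![0]) ![1,0]),
  (Sum.elim (Sum.elim ![1] ![1]) ![0,0], Sum.elim (Sum.elim ![1] ![0]) ![1,1]),
  (Sum.elim (Sum.elim ![1] ![1]) ![0,0], Sum.elim (Sum.elim ![1] ![0]) ![0,1])]

theorem clo_M1 : Clo (minusQF 1 (ZMod 2) 1 1) :=
  clo_of_cert _ qM1 bM1 hqM1 hbM1 basM1 duaM1 (by decide +kernel) derM1 (by decide +kernel)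

end Cfsg.Agent.Lib.Helper44.H1
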