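import Mathlib
import Cfsg.Agent.Lib.Helper44.Transport
import Cfsg.Agent.Lib.Helper44.StdForms
import Cfsg.Agent.Lib.Helper44.GraphInv
import Cfsg.Agent.Lib.Helper44.OmegaAll

/-! # Farm H1 (helper44, S5405): `H^1(Ω, V) = 0` for `Ω_4^-(2)`, `Ω_6^-(2)`, `Ω_8^+(2)`.  Definitions. -/

set_option autoImplicit false

namespace Cfsg.Agent.Lib.Helper44.H1

open QuadraticMap Matrix

variable {ι : Type} [Fintype ι] [DecidableEq ι]

/-- the natural action of the isometry group on `V = ι → ZMod 2` -/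
def act (Q : QuadraticForm (ZMod 2) (ι → ZMod 2)) (g : ↥(Cfsg.isometryGroup (ZMod 2) ⇑Q))
    (v : ι → ZMod 2) : ι → ZMod 2 :=
  ((g : GL ι (ZMod 2)) : Matrix ι ι (ZMod 2)) *ᵥ v

/-- every isometry is a product of reflections -/
def Gen (Q : QuadraticForm (ZMod 2) (ι → ZMod 2)) : Prop :=
  ∀ g : ↥(Cfsg.isometryGroup (ZMod 2) ⇑Q), ∃ l : List (ι → ZMod 2), (∀ v ∈ l, Q v ≠ 0) ∧
    g = (l.map (reflElt Q)).prod

/-- a function on the non-singular vectors which is additive on triangles is linear -/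
def Clo (Q : QuadraticForm (ZMod 2) (ι → ZMod 2)) : Prop :=
  ∀ c : (ι → ZMod 2) → ZMod 2,
    (∀ u w, Q u = 1 → Q w = 1 → polar Q u w = 1 → c (u + w) = c u + c w) →
    ∃ v, ∀ u, Q u = 1 → c u = polar Q v u

/-- cocycles on the full isometry group -/
def IsCoc (Q : QuadraticForm (ZMod 2) (ι → ZMod 2))
    (f : ↥(Cfsg.isometryGroup (ZMod 2) ⇑Q) → (ι → ZMod 2)) : Prop :=
  ∀ g h, f (g * h) = f g + act Q g (f h)

end Cfsg.Agent.Lib.Helper44.H1
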