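import Mathlib

/-! Farm H1 piece EX1 (pure group theory, no dependencies): extension of a cocycle from a subgroup of index 2. -/

set_option autoImplicit false

namespace Cfsg.Agent.Lib.Helper44.H1

theorem ext_cocycle {G V : Type*} [Group G] [AddCommGroup V] (a : G → V → V)
    (a1 : ∀ v, a 1 v = v) (am : ∀ g h v, a (g * h) v = a g (a h v))
    (aa : ∀ g v w, a g (v + w) = a g v + a g w) (h2 : ∀ v : V, v + v = 0)
    (N : Subgroup G) (hN : N.Normal) (t : G) (ht : t * t = 1) (htN : t ∉ N)
    (hcov : ∀ g, g ∈ N ∨ g * t ∈ N)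
    (f : N → V) (hf : ∀ g h : N, f (g * h) = f g + a g (f h)) (w : V) (hw : a t w = w)
    (hc : ∀ n : N, a t (f n) + w = f ⟨t * n * t⁻¹, hN.conj_mem n n.2 t⟩ + a (t * n * t⁻¹) w) :
    ∃ F : G → V, (∀ g h, F (g * h) = F g + a g (F h)) ∧ ∀ n : N, F n = f n := by
  classical
  have hti : t⁻¹ = t := inv_eq_of_mul_eq_one_left ht
  let f' : G → V := fun g => if h : g ∈ N then f ⟨g, h⟩ else 0
  have hf'1 : ∀ (g : G) (h : g ∈ N), f' g = f ⟨g, h⟩ := fun g h => dif_pos h
  have hf'm : ∀ x ∈ N, ∀ y ∈ N, f' (x * y) = f' x + a x (f' y) := by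
    intro x hx y hy
    rw [hf'1 _ (N.mul_mem hx hy), hf'1 x hx, hf'1 y hy]
    exact hf ⟨x, hx⟩ ⟨y, hy⟩
  have hconj : ∀ n ∈ N, t * n * t ∈ N := by
    intro n hn
    have := hN.conj_mem n hn t
    rwa [hti] at this
  have hc' : ∀ n ∈ N, a t (f' n) + w = f' (t * n * t) + a (t * n * t) w := by
    intro n hn
    have h0 : a t (f' n) + w = f' (t * n * t⁻¹) + a (t * n * t⁻¹) w := by
      rw [hf'1 n hn, hf'1 _ (hN.conj_mem n hn t)]
      exact hc ⟨n, hn⟩
    rwa [hti] at h0
  let F : G → V := fun g => if g ∈ N then f' g else f' (g * t) + a (g * t) w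
  have hF1 : ∀ g, g ∈ N → F g = f' g := fun g h => if_pos h
  have hF2 : ∀ g, g ∉ N → F g = f' (g * t) + a (g * t) w := fun g h => if_neg h
  have hcov' : ∀ g, g ∉ N → g * t ∈ N := fun g h => (hcov g).resolve_left h
  have ex : ∀ (x : G) (v : V), a x v = a (x * t) (a t v) := by
    intro x v
    rw [← am, mul_assoc, ht, mul_one]
  refine ⟨F, ?_, fun n => by rw [hF1 n n.2, hf'1 n n.2]⟩
  intro x y
  by_cases hx : x ∈ N <;> by_cases hy : y ∈ N
  · rw [hF1 _ (N.mul_mem hx hy), hF1 x hx, hF1 y hy]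
    exact hf'm x hx y hy
  · have hxy : x * y ∉ N := by
      intro h
      apply hy
      have := N.mul_mem (N.inv_mem hx) h
      simpa using this
    rw [hF2 _ hxy, hF1 x hx, hF2 y hy, mul_assoc, hf'm x hx _ (hcov' y hy), am, aa]
    abel
  · have hxy : x * y ∉ N := by
      intro h
      apply hx
      have := N.mul_mem h (N.inv_mem hy)
      simpa using this
    have e : x * y * t = (x * t) * (t * y * t) := by
      have : (x * t) * (t * y * t) = x * (t * t) * y * t := by group
      rw [this, ht, mul_one]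
    have hn := hcov' x hx
    have hm := hconj y hy
    rw [hF2 _ hxy, hF2 x hx, hF1 y hy, e, hf'm _ hn _ hm, am (x * t) (t * y * t) w, ex x (f' y)]
    have h3 := congrArg (a (x * t)) (hc' y hy)
    rw [aa, aa] at h3
    calc f' (x * t) + a (x * t) (f' (t * y * t)) + a (x * t) (a (t * y * t) w)
        = f' (x * t) + (a (x * t) (f' (t * y * t)) + a (x * t) (a (t * y * t) w)) := by abel
      _ = f' (x * t) + (a (x * t) (a t (f' y)) + a (x * t) w) := by rw [h3]
      _ = f' (x * t) + a (x * t) w + a (x * t) (a t (f' y)) := by abel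
  · have hn := hcov' x hx
    have hn' := hcov' y hy
    have hm := hconj _ hn'
    have e : x * y = (x * t) * (t * (y * t) * t) := by
      have : (x * t) * (t * (y * t) * t) = x * (t * t) * y * (t * t) := by group
      rw [this, ht, mul_one, mul_one]
    have hxy : x * y ∈ N := by rw [e]; exact N.mul_mem hn hm
    rw [hF1 _ hxy, hF2 x hx, hF2 y hy, ex x, aa, aa]
    have e2 : f' (x * y) = f' (x * t) + a (x * t) (f' (t * (y * t) * t)) := by
      rw [e]; exact hf'm _ hn _ hm
    rw [e2]
    have h3 := congrArg (a (x * t)) (hc' _ hn')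
    rw [aa, aa] at h3
    have h4 : a (t * (y * t) * t) w = a t (a (y * t) w) := by
      rw [am, am, hw]
    rw [h4] at h3
    set Z := a (x * t) (a t (a (y * t) w)) with hZ
    calc f' (x * t) + a (x * t) (f' (t * (y * t) * t))
        = f' (x * t) + (a (x * t) (f' (t * (y * t) * t)) + Z) + Z := by
          rw [add_assoc, add_assoc, h2 Z, add_zero]
      _ = f' (x * t) + (a (x * t) (a t (f' (y * t))) + a (x * t) w) + Z := by rw [h3]
      _ = f' (x * t) + a (x * t) w + (a (x * t) (a t (f' (y * t))) + Z) := by abel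

end Cfsg.Agent.Lib.Helper44.H1
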