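import Mathlib
import Cfsg.Agent.Lib.Helper44.H1.EX1

/-! Farm H1 piece EX2 (pure group theory; uses EX1 = ext_cocycle). -/

set_option autoImplicit false

namespace Cfsg.Agent.Lib.Helper44.H1

theorem ext_principal {G V : Type*} [Group G] [AddCommGroup V] (a : G → V → V)
    (a1 : ∀ v, a 1 v = v) (am : ∀ g h v, a (g * h) v = a g (a h v))
    (aa : ∀ g v w, a g (v + w) = a g v + a g w) (h2 : ∀ v : V, v + v = 0)
    (N : Subgroup G) (hN : N.Normal) (t : G) (ht : t * t = 1)
    (hcov : ∀ g, g ∈ N ∨ g * t ∈ N)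
    (hfix : ∀ v, (∀ g ∈ N, a g v = v) → v = 0)
    (hG : ∀ F : G → V, (∀ g h, F (g * h) = F g + a g (F h)) → ∃ v, ∀ g, F g = a g v - v)
    (f : N → V) (hf : ∀ g h : N, f (g * h) = f g + a g (f h)) :
    ∃ v, ∀ g : N, f g = a g v - v := by
  have hti : t⁻¹ = t := inv_eq_of_mul_eq_one_left ht
  by_cases htN : t ∈ N
  · have hall : ∀ g, g ∈ N := by
      intro g
      rcases hcov g with h | h
      · exact h
      · have := N.mul_mem h (N.inv_mem htN)
        simpa using this
    obtain ⟨v, hv⟩ := hG (fun g => f ⟨g, hall g⟩) (fun g h => hf ⟨g, hall g⟩ ⟨h, hall h⟩)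
    exact ⟨v, fun g => hv g⟩
  have hneg : ∀ x : V, -x = x := fun x => by rw [neg_eq_iff_add_eq_zero]; exact h2 x
  have hsub : ∀ x y : V, x - y = x + y := fun x y => by rw [sub_eq_add_neg, hneg]
  have a0 : ∀ g, a g 0 = 0 := by
    intro g
    have := aa g 0 0
    rw [add_zero] at this
    exact (add_eq_left.mp this.symm)
  have att : ∀ v, a t (a t v) = v := by
    intro v
    rw [← am, ht, a1]
  let cj : N → N := fun n => ⟨t * n * t⁻¹, hN.conj_mem n n.2 t⟩
  have cj_coe : ∀ n : N, ((cj n : N) : G) = t * n * t⁻¹ := fun n => rfl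
  have cj_mul : ∀ n n' : N, cj (n * n') = cj n * cj n' := by
    intro n n'
    apply Subtype.ext
    show t * (n * n' : G) * t⁻¹ = (t * n * t⁻¹) * (t * n' * t⁻¹)
    group
  have cj_cj : ∀ n : N, cj (cj n) = n := by
    intro n
    apply Subtype.ext
    show t * (t * n * t⁻¹) * t⁻¹ = n
    have : t * (t * (n : G) * t⁻¹) * t⁻¹ = (t * t) * n * (t * t)⁻¹ := by group
    rw [this, ht]; simp
  -- `a t ∘ a (t n t⁻¹) = a n ∘ a t`
  have hcomm : ∀ (n : N) (v : V), a t (a (t * n * t⁻¹) v) = a n (a t v) := by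
    intro n v
    rw [← am, ← am]
    congr 1
    have : t * (t * (n : G) * t⁻¹) = (t * t) * n * t⁻¹ := by group
    rw [this, ht, one_mul, hti]
  have hcomm2 : ∀ (n : N) (v : V), a (t * n * t⁻¹) v = a t (a n (a t v)) := by
    intro n v
    rw [am, am, hti]
  -- step 1
  let f1 : N → V := fun n => f n + a t (f (cj n))
  have hf1 : ∀ g h : N, f1 (g * h) = f1 g + a g (f1 h) := by
    intro n n'
    show f (n * n') + a t (f (cj (n * n'))) = f n + a t (f (cj n)) + a n (f n' + a t (f (cj n')))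
    rw [cj_mul, hf, hf, aa, aa, cj_coe, hcomm]
    abel
  have hc1 : ∀ n : N, a t (f1 n) + 0 = f1 ⟨t * n * t⁻¹, hN.conj_mem n n.2 t⟩ + a (t * n * t⁻¹) 0 := by
    intro n
    show a t (f n + a t (f (cj n))) + 0 = f (cj n) + a t (f (cj (cj n))) + a (t * n * t⁻¹) 0
    rw [a0, cj_cj, aa, att]
    abel
  obtain ⟨F1, hF1, hF1N⟩ := ext_cocycle a a1 am aa h2 N hN t ht htN hcov f1 hf1 0 (a0 t) hc1
  obtain ⟨v, hv⟩ := hG F1 hF1
  have star : ∀ n : N, f n + a t (f (cj n)) = a n v + v := by
    intro n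
    have h3 := hv n
    rw [hF1N, hsub] at h3
    exact h3
  -- (***)
  have star3 : ∀ n : N, f (cj n) + a t (f n) = a (t * n * t⁻¹) v + v := by
    intro n
    have h3 := star (cj n)
    rw [cj_cj, cj_coe] at h3
    exact h3
  -- step 2
  have hc2 : ∀ n : N, a t (f n) + v = f ⟨t * n * t⁻¹, hN.conj_mem n n.2 t⟩ + a (t * n * t⁻¹) v := by
    intro n
    show a t (f n) + v = f (cj n) + a (t * n * t⁻¹) v
    have h3 := star3 n
    calc a t (f n) + v = (f (cj n) + f (cj n)) + a t (f n) + v := by rw [h2, zero_add]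
      _ = f (cj n) + (f (cj n) + a t (f n)) + v := by abel
      _ = f (cj n) + (a (t * n * t⁻¹) v + v) + v := by rw [h3]
      _ = f (cj n) + a (t * n * t⁻¹) v + (v + v) := by abel
      _ = f (cj n) + a (t * n * t⁻¹) v := by rw [h2, add_zero]
  -- step 3
  have hz : ∀ n : N, a t (a n (a t v + v)) = a t v + v := by
    intro n
    have h3 := congrArg (a t) (star n)
    rw [aa, aa, att] at h3
    have h4 := star3 n
    rw [hcomm2] at h4
    -- h3 : a t (f n) + f (cj n) = a t (a n v) + a t v ; h4 : f (cj n) + a t (f n) = a t (a n (a t v)) + v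
    have h5 : a t (a n v) + a t v = a t (a n (a t v)) + v := by
      rw [← h3, ← h4, add_comm]
    rw [aa, aa]
    calc a t (a n (a t v)) + a t (a n v)
        = a t (a n (a t v)) + (a t (a n v) + a t v) + a t v := by
          rw [add_assoc (a t (a (↑n) (a t v))), add_assoc (a t (a (↑n) v)), h2, add_zero]
      _ = a t (a n (a t v)) + (a t (a n (a t v)) + v) + a t v := by rw [h5]
      _ = (a t (a n (a t v)) + a t (a n (a t v))) + (a t v + v) := by abel
      _ = a t v + v := by rw [h2, zero_add]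
  have hz1 : a t (a t v + v) = a t v + v := by
    have := hz 1
    rwa [Subgroup.coe_one, a1] at this
  have hz0 : a t v + v = 0 := by
    apply hfix
    intro g hg
    have h3 := hz ⟨g, hg⟩
    have h4 := congrArg (a t) h3
    rw [att, hz1] at h4
    exact h4
  have hw : a t v = v := by
    have : a t v = -v := eq_neg_of_add_eq_zero_left hz0
    rw [this, hneg]
  -- step 4
  obtain ⟨F, hF, hFN⟩ := ext_cocycle a a1 am aa h2 N hN t ht htN hcov f hf v hw hc2
  obtain ⟨v', hv'⟩ := hG F hF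
  exact ⟨v', fun g => by rw [← hFN]; exact hv' g⟩

end Cfsg.Agent.Lib.Helper44.H1
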