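import Cfsg.Agent.Lib.Helper44.H1.Defs

/-! Farm H1 piece IDX.  O = Ω ∪ Ω t.  (formalized by helper67) -/

set_option autoImplicit false

namespace Cfsg.Agent.Lib.Helper44.H1

open QuadraticMap Matrix

variable {ι : Type} [Fintype ι] [DecidableEq ι] {Q : QuadraticForm (ZMod 2) (ι → ZMod 2)}

theorem IDX_coe_prod (l : List (ι → ZMod 2)) :
    ((((l.map (reflElt Q)).prod : ↥(Cfsg.isometryGroup (ZMod 2) ⇑Q)) : GL ι (ZMod 2)) : Matrix ι ι (ZMod 2))
      = (l.map (fun v => Cfsg.reflectionMatrix ⇑Q v)).prod := by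
  induction l with
  | nil => simp
  | cons v l ih =>
    simp only [List.map_cons, List.prod_cons, Subgroup.coe_mul, Units.val_mul, reflElt_coe, ih]

theorem IDX_isSquare (x : ZMod 2) : IsSquare x := by
  revert x; decide

theorem IDX_even (hQ : (polarBilin Q).Nondegenerate) (l : List (ι → ZMod 2)) (hl : ∀ v ∈ l, Q v ≠ 0)
    (he : Even l.length) : (l.map (reflElt Q)).prod ∈ Cfsg.Omega (ZMod 2) ⇑Q :=
  mem_Omega_of_prod Q hQ _ l hl (IDX_coe_prod l) he (IDX_isSquare _)

theorem cover_Omega (hQ : (polarBilin Q).Nondegenerate) (hG : Gen Q) {u₀ : ι → ZMod 2} (hu₀ : Q u₀ ≠ 0)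
    (g : ↥(Cfsg.isometryGroup (ZMod 2) ⇑Q)) :
    g ∈ Cfsg.Omega (ZMod 2) ⇑Q ∨ g * reflElt Q u₀ ∈ Cfsg.Omega (ZMod 2) ⇑Q := by
  obtain ⟨l, hl, rfl⟩ := hG g
  rcases Nat.even_or_odd l.length with he | ho
  · exact Or.inl (IDX_even hQ l hl he)
  · right
    have h1 : (l.map (reflElt Q)).prod * reflElt Q u₀ = ((l ++ [u₀]).map (reflElt Q)).prod := by
      simp
    rw [h1]
    apply IDX_even hQ
    · intro v hv
      rcases List.mem_append.1 hv with h | h
      · exact hl v h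
      · rw [List.mem_singleton.1 h]; exact hu₀
    · rw [List.length_append, List.length_singleton]
      exact ho.add_one

theorem refl_mul_refl_mem_Omega (hQ : (polarBilin Q).Nondegenerate) {u w : ι → ZMod 2} (hu : Q u ≠ 0) (hw : Q w ≠ 0) :
    reflElt Q u * reflElt Q w ∈ Cfsg.Omega (ZMod 2) ⇑Q := by
  have h1 : reflElt Q u * reflElt Q w = (([u, w] : List (ι → ZMod 2)).map (reflElt Q)).prod := by
    simp
  rw [h1]
  apply IDX_even hQ
  · intro v hv
    simp only [List.mem_cons, List.not_mem_nil, or_false] at hv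
    rcases hv with rfl | rfl
    · exact hu
    · exact hw
  · exact ⟨1, rfl⟩

end Cfsg.Agent.Lib.Helper44.H1
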