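import Cfsg.Agent.Lib.Helper44.H1.AFF

/-! Farm H1 piece SPAN.  A vector orthogonal to all non-singular vectors is 0
(dim ≥ 3, field ZMod 2). -/

set_option autoImplicit false

namespace Cfsg.Agent.Lib.Helper44.H1

open QuadraticMap Matrix

variable {ι : Type} [Fintype ι] [DecidableEq ι] {Q : QuadraticForm (ZMod 2) (ι → ZMod 2)}

theorem SPAN_exists_perp (hn : 3 ≤ Fintype.card ι) (v : ι → ZMod 2) :
    ∃ x, polar Q v x = 0 ∧ x ≠ 0 ∧ x ≠ v := by
  set φ : (ι → ZMod 2) →ₗ[ZMod 2] ZMod 2 := polarBilin Q v with hφ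
  have hfr : Module.finrank (ZMod 2) (ι → ZMod 2) = Fintype.card ι :=
    Module.finrank_fintype_fun_eq_card _
  have h1 := LinearMap.finrank_range_add_finrank_ker φ
  have h2 : Module.finrank (ZMod 2) (LinearMap.range φ) ≤ 1 := by
    have := Submodule.finrank_le (LinearMap.range φ)
    rwa [Module.finrank_self] at this
  have h3 : Module.finrank (ZMod 2) (Submodule.span (ZMod 2) ({v} : Set (ι → ZMod 2))) ≤ 1 :=
    (finrank_span_le_card ({v} : Set (ι → ZMod 2))).trans (by simp)
  have h4 : ¬ LinearMap.ker φ ≤ Submodule.span (ZMod 2) ({v} : Set (ι → ZMod 2)) := by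
    intro hle
    have := Submodule.finrank_mono hle
    omega
  obtain ⟨x, hx, hxv⟩ := SetLike.not_le_iff_exists.1 h4
  refine ⟨x, ?_, ?_, ?_⟩
  · have : φ x = 0 := hx
    simpa [hφ] using this
  · rintro rfl
    exact hxv (Submodule.zero_mem _)
  · rintro rfl
    exact hxv (Submodule.mem_span_singleton_self _)

theorem eq_zero_of_perp_nonsingular (hQ : (polarBilin Q).Nondegenerate) (hn : 3 ≤ Fintype.card ι)
    (v : ι → ZMod 2) (h : ∀ u, Q u = 1 → polar Q v u = 0) : v = 0 := by
  have z2 : ∀ a : ZMod 2, a = 0 ∨ a = 1 := by decide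
  by_contra hv
  obtain ⟨w1, hw1⟩ := polar_nondeg_exists hQ hv
  have hvw1 : polar Q v w1 = 1 := by rw [polar_comm]; exact hw1
  have hQw1 : Q w1 = 0 := by
    rcases z2 (Q w1) with h0 | h1
    · exact h0
    · have := h w1 h1
      rw [hvw1] at this
      exact absurd this (by decide)
  have hfr : Module.finrank (ZMod 2) (ι → ZMod 2) = Fintype.card ι :=
    Module.finrank_fintype_fun_eq_card _
  obtain ⟨z0, hz0⟩ := exists_nonsingular hQ (by rw [hfr]; omega)
  have hz0' : Q z0 = 1 := (z2 _).resolve_left hz0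
  -- (a)
  have ha : ∀ z, Q z = 1 → polar Q z w1 = 1 := by
    intro z hz
    by_contra hcon
    have hzw : polar Q z w1 = 0 := (z2 _).resolve_right hcon
    have hq : Q (z + w1) = 1 := by
      rw [QuadraticMap.map_add (⇑Q), hz, hQw1, hzw]; decide
    have := h _ hq
    rw [polar_add_right, h z hz, hvw1] at this
    exact absurd this (by decide)
  -- (b)
  have hb : Q v = 1 := by
    by_contra hcon
    have hqv : Q v = 0 := (z2 _).resolve_right hcon
    have hq : Q (z0 + v) = 1 := by
      rw [QuadraticMap.map_add (⇑Q), hz0', hqv, polar_comm (⇑Q) z0 v, h z0 hz0']; decide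
    have := ha _ hq
    rw [polar_add_left, ha z0 hz0', hvw1] at this
    exact absurd this (by decide)
  -- (c)
  have hc : ∀ x, polar Q v x = 0 → polar Q x w1 = Q x := by
    intro x hx
    rcases z2 (Q x) with h0 | h1
    · have hq : Q (x + v) = 1 := by
        rw [QuadraticMap.map_add (⇑Q), h0, hb, polar_comm (⇑Q) x v, hx]; decide
      have := ha _ hq
      rw [polar_add_left, hvw1] at this
      rw [h0]
      rcases z2 (polar Q x w1) with h' | h'
      · exact h'
      · rw [h'] at this
        exact absurd this (by decide)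
    · rw [h1]; exact ha x h1
  -- (d)
  have hd : ∀ x x', polar Q v x = 0 → polar Q v x' = 0 → polar Q x x' = 0 := by
    intro x x' hx hx'
    have hs : polar Q v (x + x') = 0 := by rw [polar_add_right, hx, hx']; rfl
    have h1 := hc _ hs
    rw [polar_add_left, hc x hx, hc x' hx'] at h1
    unfold QuadraticMap.polar
    rw [← h1]
    ring
  -- (e)
  obtain ⟨x, hx, hx0, hxv⟩ := SPAN_exists_perp (Q := Q) hn v
  obtain ⟨w0, hw0v, hw0x⟩ := AFF_w0 hQ hx0 hxv
  have := hd w0 x (by rw [polar_comm]; exact hw0v) hx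
  rw [hw0x] at this
  exact absurd this (by decide)

end Cfsg.Agent.Lib.Helper44.H1
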