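import Cfsg.Agent.Lib.Helper44.H1.A0
import Cfsg.Agent.Lib.Helper44.H1.IDX
import Cfsg.Agent.Lib.Helper44.H1.SPAN

/-! Farm H1 piece FIX (uses A0 IDX SPAN).  C_V(Ω) = 0.
PROOF. By eq_zero_of_perp_nonsingular it suffices: polar v w = 0 for every w with Q w = 1.  Choose a non-singular u ≠ w  (if w were the only non-singular vector, then SPAN applied to ... ; simplest:
 pick x with polar x w = 1 (polar_nondeg_exists, w ≠ 0); if Q x = 1 take u = x (x ≠ w since polar w w = 0); if Q x = 0 take u = x + w: Q = 0 + 1 + 1 = 0 — NO; then take instead: Q x = 0 ⇒ look at AFF/SPAN: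
 by SPAN (contrapositive, applied to the vector w ≠ 0) there is a non-singular u with polar w u = 1, in particular u ≠ w).
 g := reflElt Q u * reflElt Q w ∈ Ω (refl_mul_refl_mem_Omega).  act g v = v gives act r_w v = act r_u v (r_u is an involution: apply act r_u, act_mul, reflElt_mul_self, act_one), i.e.
 polar w v • w = polar u v • u.  If polar w v = 1 then w = polar u v • u ∈ {0, u}: impossible.  So polar w v = 0; polar_comm. -/

set_option autoImplicit false

namespace Cfsg.Agent.Lib.Helper44.H1

open QuadraticMap Matrix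

variable {ι : Type} [Fintype ι] [DecidableEq ι] {Q : QuadraticForm (ZMod 2) (ι → ZMod 2)}

theorem fix_Omega (hQ : (polarBilin Q).Nondegenerate) (hn : 3 ≤ Fintype.card ι) (v : ι → ZMod 2)
    (h : ∀ g ∈ Cfsg.Omega (ZMod 2) ⇑Q, act Q g v = v) : v = 0 := by
  apply eq_zero_of_perp_nonsingular hQ hn
  intro w hw
  have hw0 : w ≠ 0 := by intro h0; rw [h0, map_zero] at hw; exact zero_ne_one hw
  obtain ⟨u, hu, hwu⟩ : ∃ u, Q u = 1 ∧ polar Q w u ≠ 0 := by
    by_contra hcon
    push Not at hcon
    exact hw0 (eq_zero_of_perp_nonsingular hQ hn w hcon)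
  have huw : u ≠ w := by rintro rfl; exact hwu (polar_self_V Q u)
  have hg := h _ (refl_mul_refl_mem_Omega hQ (u := u) (w := w) (by rw [hu]; exact one_ne_zero)
    (by rw [hw]; exact one_ne_zero))
  rw [act_mul, act_reflElt Q hw, act_reflElt Q hu] at hg
  have h01 : ∀ a : ZMod 2, a = 0 ∨ a = 1 := by decide
  rw [polar_comm]
  rcases h01 (polar Q w v) with ha | ha
  · exact ha
  · exfalso
    rw [ha, one_smul] at hg
    rcases h01 (polar Q u (v + w)) with hb | hb
    · rw [hb, zero_smul, add_zero] at hg
      exact hw0 (by simpa using hg)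
    · rw [hb, one_smul] at hg
      have h6 : w + u = 0 := by
        have : v + (w + u) = v := by rw [← add_assoc]; exact hg
        simpa using this
      apply huw
      have h7 := add_self_V w
      have : u = w := by
        have h8 : w + u = w + w := by rw [h6, h7]
        exact add_left_cancel h8
      exact this

end Cfsg.Agent.Lib.Helper44.H1
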