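import Cfsg.Agent.Lib.Helper44.H1.Defs

/-! Farm H1 piece GEN4.  O_4^-(2) is generated by reflections (the general theorem
Helper44.Gen.exists_list_refl excludes dimension 4 over ZMod 2). -/

set_option autoImplicit false

namespace Cfsg.Agent.Lib.Helper44.H1

open QuadraticMap Matrix

namespace G4

abbrev I4 := (Fin 1 ⊕ Fin 1) ⊕ Fin 2
abbrev V4 := I4 → ZMod 2
noncomputable abbrev Q4 : QuadraticForm (ZMod 2) V4 := minusQF 1 (ZMod 2) 1 1

def mk (a b c d : ZMod 2) : V4 := fun i => match i with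
  | .inl (.inl _) => a
  | .inl (.inr _) => b
  | .inr j => if j = 0 then c else d

theorem ext4 {x y : V4} (h1 : x (.inl (.inl 0)) = y (.inl (.inl 0)))
    (h2 : x (.inl (.inr 0)) = y (.inl (.inr 0))) (h3 : x (.inr 0) = y (.inr 0))
    (h4 : x (.inr 1) = y (.inr 1)) : x = y := by
  funext i
  rcases i with (i | i) | i
  · rw [Subsingleton.elim i 0]; exact h1
  · rw [Subsingleton.elim i 0]; exact h2
  · fin_cases i
    · exact h3
    · exact h4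

theorem Q4_apply (x : V4) : Q4 x = x (.inl (.inl 0)) * x (.inl (.inr 0))
    + (x (.inr 0) ^ 2 + x (.inr 0) * x (.inr 1) + x (.inr 1) ^ 2) := by
  rw [minusQF_apply]; simp

theorem pol4 (x y : V4) : polar Q4 x y = x (.inl (.inl 0)) * y (.inl (.inr 0))
    + y (.inl (.inl 0)) * x (.inl (.inr 0)) + (x (.inr 0) * y (.inr 1) + x (.inr 1) * y (.inr 0)) := by
  rw [minusQF_polar]
  have h2 : (2 : ZMod 2) = 0 := by decide
  simp [h2]

set_option synthInstance.maxSize 2000 in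
set_option synthInstance.maxHeartbeats 400000 in
set_option maxRecDepth 100000 in
theorem F' : ∀ a b c d a' b' c' d' : ZMod 2, ¬(a = 0 ∧ b = 0 ∧ c = 0 ∧ d = 0) →
    ¬(a' = 0 ∧ b' = 0 ∧ c' = 0 ∧ d' = 0) →
    a * b + (c ^ 2 + c * d + d ^ 2) = 0 → a' * b' + (c' ^ 2 + c' * d' + d' ^ 2) = 0 →
    ¬(a = a' ∧ b = b' ∧ c = c' ∧ d = d') → a * b' + a' * b + (c * d' + d * c') = 1 := by
  decide

theorem F {s s' : V4} (hs : s ≠ 0) (hs' : s' ≠ 0) (h : Q4 s = 0) (h' : Q4 s' = 0) (hne : s ≠ s') :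
    polar Q4 s s' = 1 := by
  rw [pol4]
  rw [Q4_apply] at h h'
  apply F' _ _ _ _ _ _ _ _ ?_ ?_ h h' ?_
  · rintro ⟨h1, h2, h3, h4⟩; exact hs (ext4 h1 h2 h3 h4)
  · rintro ⟨h1, h2, h3, h4⟩; exact hs' (ext4 h1 h2 h3 h4)
  · rintro ⟨h1, h2, h3, h4⟩; exact hne (ext4 h1 h2 h3 h4)

theorem step {g : V4 ≃ₗ[ZMod 2] V4} (hg : g ∈ OQ Q4) {s : V4} (hs : s ≠ 0) (hQ : Q4 s = 0) :
    ∃ r ∈ reflSubgroup Q4, (r * g) s = s ∧ ∀ x, g x = x → (r * g) x = x := by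
  by_cases hgs : g s = s
  · exact ⟨1, Subgroup.one_mem _, by simpa using hgs, fun x hx => by simpa using hx⟩
  · have hgs0 : g s ≠ 0 := fun h => hs ((LinearEquiv.map_eq_zero_iff g).1 h)
    have hQg : Q4 (g s) = 0 := by rw [mem_OQ.1 hg, hQ]
    have hpol : polar Q4 (g s) s = 1 := F hgs0 hs hQg hQ hgs
    have hQu : Q4 (g s - s) = 1 := by
      have h1 := Q_add_smul Q4 (g s) s (-1)
      simp only [neg_smul, one_smul, ← sub_eq_add_neg] at h1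
      rw [h1, hQg, hQ, hpol]; decide
    have hQu' : Q4 (g s - s) ≠ 0 := by rw [hQu]; decide
    refine ⟨refl Q4 (g s - s), refl_mem_reflSubgroup Q4 hQu', ?_, ?_⟩
    · rw [LinearEquiv.mul_apply]
      exact refl_sub_apply (by rw [hQg, hQ]) hQu'
    · intro x hx
      rw [LinearEquiv.mul_apply, hx]
      apply refl_apply_of_polar_eq_zero
      have h1 : polar Q4 (g s) (g x) = polar Q4 s x := OQ_polar hg s x
      rw [hx] at h1
      rw [polar_sub_left, h1, sub_self]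

theorem mk_eta (x : V4) : x = mk (x (.inl (.inl 0))) (x (.inl (.inr 0))) (x (.inr 0)) (x (.inr 1)) :=
  ext4 rfl rfl rfl rfl

theorem mk_comb : ∀ a b c d : ZMod 2, mk a b c d = (a + c + d) • mk 1 0 0 0 + (b + c + d) • mk 0 1 0 0
    + c • mk 1 1 1 0 + d • mk 1 1 0 1 := by
  decide

theorem mem_refl {g : V4 ≃ₗ[ZMod 2] V4} (hg : g ∈ OQ Q4) : g ∈ reflSubgroup Q4 := by
  have hle := reflSubgroup_le Q4
  obtain ⟨r1, hr1, h11, -⟩ := step hg (s := mk 1 0 0 0) (by decide) (by rw [Q4_apply]; decide)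
  have hg1 : r1 * g ∈ OQ Q4 := mul_mem (hle hr1) hg
  obtain ⟨r2, hr2, h22, h2f⟩ := step hg1 (s := mk 0 1 0 0) (by decide) (by rw [Q4_apply]; decide)
  have hg2 : r2 * (r1 * g) ∈ OQ Q4 := mul_mem (hle hr2) hg1
  obtain ⟨r3, hr3, h33, h3f⟩ := step hg2 (s := mk 1 1 1 0) (by decide) (by rw [Q4_apply]; decide)
  have hg3 : r3 * (r2 * (r1 * g)) ∈ OQ Q4 := mul_mem (hle hr3) hg2
  obtain ⟨r4, hr4, h44, h4f⟩ := step hg3 (s := mk 1 1 0 1) (by decide) (by rw [Q4_apply]; decide)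
  have f1 : (r4 * (r3 * (r2 * (r1 * g)))) (mk 1 0 0 0) = mk 1 0 0 0 := h4f _ (h3f _ (h2f _ h11))
  have f2 : (r4 * (r3 * (r2 * (r1 * g)))) (mk 0 1 0 0) = mk 0 1 0 0 := h4f _ (h3f _ h22)
  have f3 : (r4 * (r3 * (r2 * (r1 * g)))) (mk 1 1 1 0) = mk 1 1 1 0 := h4f _ h33
  have hone : r4 * (r3 * (r2 * (r1 * g))) = 1 := by
    apply LinearEquiv.ext
    intro x
    rw [mk_eta x, mk_comb]
    simp only [map_add, map_smul, f1, f2, f3, h44]
    rfl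
  have hgeq : g = r1⁻¹ * (r2⁻¹ * (r3⁻¹ * r4⁻¹)) := by
    calc g = r1⁻¹ * (r2⁻¹ * (r3⁻¹ * (r4⁻¹ * (r4 * (r3 * (r2 * (r1 * g))))))) := by group
      _ = r1⁻¹ * (r2⁻¹ * (r3⁻¹ * r4⁻¹)) := by rw [hone, mul_one]
  rw [hgeq]
  exact mul_mem (inv_mem hr1) (mul_mem (inv_mem hr2) (mul_mem (inv_mem hr3) (inv_mem hr4)))

end G4

theorem gen_minus1 : Gen (minusQF 1 (ZMod 2) 1 1) := by
  intro g
  obtain ⟨l, hl, hg⟩ := exists_list_of_mem_reflSubgroup (G4.mem_refl (isoEquiv _ g).2)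
  exact ⟨l, hl, eq_prod_reflElt _ g l ((isoEquiv_eq_prod_iff _ g l).1 hg)⟩

end Cfsg.Agent.Lib.Helper44.H1
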