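import Cfsg.Agent.Lib.Helper44.H1.B1
import Cfsg.Agent.Lib.Helper44.H1.B2

/-! Farm H1 piece HO (uses A0 B1 B2).  H^1(O(Q), V) = 0.
PROOF. c u := if f (reflElt Q u) = 0 then 0 else 1 (classical).  By coc_refl, for Q u = 1: f (reflElt Q u) = c u • u.
 For Q u = Q w = polar u w = 1: Q (u + w) = 1 + 1 + 1 = 1, so f r_{u+w} = c (u+w) • (u+w), and = (c u + c w) • (u + w) by coc_triangle; u + w ≠ 0 (Q ≠ 0), so c (u+w) = c u + c w.
 hC gives v with c u = polar v u for Q u = 1.  Then f r_u = polar v u • u = act r_u v - v (act_reflElt, polar_comm, char 2).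
 S := {g | f g = act g v - v} contains 1 (f 1 = 0), all reflElt Q u (Q u ≠ 0 → Q u = 1) and is closed under products:
 f (g h) = f g + act g (f h) = act g v - v + act g (act h v - v) = act (g h) v - v.   hG + induction on the list. -/

set_option autoImplicit false

namespace Cfsg.Agent.Lib.Helper44.H1

open QuadraticMap Matrix

variable {ι : Type} [Fintype ι] [DecidableEq ι] {Q : QuadraticForm (ZMod 2) (ι → ZMod 2)}

theorem principal_O (hQ : (polarBilin Q).Nondegenerate) (hG : Gen Q) (hC : Clo Q)
    (f : ↥(Cfsg.isometryGroup (ZMod 2) ⇑Q) → (ι → ZMod 2)) (hf : IsCoc Q f) :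
    ∃ v, ∀ g, f g = act Q g v - v := by
  classical
  let c : (ι → ZMod 2) → ZMod 2 := fun u => if f (reflElt Q u) = 0 then 0 else 1
  have hc : ∀ u, Q u = 1 → f (reflElt Q u) = c u • u := by
    intro u hu
    by_cases h0 : f (reflElt Q u) = 0
    · simp [c, h0]
    · rcases coc_refl hQ hf hu with h | h
      · exact absurd h h0
      · simp only [c, if_neg h0, one_smul]; exact h
  have hadd : ∀ u w, Q u = 1 → Q w = 1 → polar Q u w = 1 → c (u + w) = c u + c w := by
    intro u w hu hw huw
    have hQuw : Q (u + w) = 1 := by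
      have h0 : polar Q u w = Q (u + w) - Q u - Q w := rfl
      rw [hu, hw, huw] at h0
      have h2 : Q (u + w) = 1 + 1 + 1 := by linear_combination -h0
      rw [h2]; decide
    have h1 := hc (u + w) hQuw
    have h2 := coc_triangle hf hu hw huw (c u) (c w) (hc u hu) (hc w hw)
    have hne : u + w ≠ 0 := by
      intro h0; rw [h0, map_zero] at hQuw; exact zero_ne_one hQuw
    have h3 : (c (u + w) - (c u + c w)) • (u + w) = 0 := by rw [sub_smul, ← h1, ← h2, sub_self]
    rcases smul_eq_zero.mp h3 with h | h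
    · exact sub_eq_zero.mp h
    · exact absurd h hne
  obtain ⟨v, hv⟩ := hC c hadd
  refine ⟨v, ?_⟩
  have hsub : ∀ a b : ι → ZMod 2, a - b = a + b := by
    intro a b
    rw [sub_eq_add_neg]
    congr 1
    exact neg_eq_of_add_eq_zero_left (add_self_V b)
  have h1 : f 1 = 0 := by
    have := hf 1 1
    rw [mul_one, act_one] at this
    simpa using this
  have hrefl : ∀ u, Q u ≠ 0 → f (reflElt Q u) = act Q (reflElt Q u) v - v := by
    intro u hu0
    have hu := Q_eq_one_of_ne Q hu0
    rw [hc u hu, hv u hu, act_reflElt Q hu, polar_comm]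
    abel
  intro g
  obtain ⟨l, hl, rfl⟩ := hG g
  induction l with
  | nil => simp [h1, act_one]
  | cons a l ih =>
    rw [List.map_cons, List.prod_cons, hf, act_mul, hrefl a (hl a (by simp)),
      ih (fun v hv => hl v (List.mem_cons_of_mem _ hv))]
    simp only [hsub, act_add]
    have h5 := add_self_V (act Q (reflElt Q a) v)
    linear_combination h5

end Cfsg.Agent.Lib.Helper44.H1
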