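import Cfsg.Agent.Lib.Helper44.H1.EX2
import Cfsg.Agent.Lib.Helper44.H1.HO
import Cfsg.Agent.Lib.Helper44.H1.FIX
import Cfsg.Agent.Lib.Helper44.H1.GEN4
import Cfsg.Agent.Lib.Helper44.H1.CM1
import Cfsg.Agent.Lib.Helper44.H1.CM2
import Cfsg.Agent.Lib.Helper44.H1.CP4
import Cfsg.Agent.Lib.Helper44.SOIndex
import Cfsg.Agent.Lib.Helper44.Index

/-! Farm H1 (S5405): assembly. -/

set_option autoImplicit false

namespace Cfsg.Agent.Lib.Helper44.H1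

open QuadraticMap Matrix

variable {ι : Type} [Fintype ι] [DecidableEq ι]

theorem gen_of_card (Q : QuadraticForm (ZMod 2) (ι → ZMod 2)) (hQ : (polarBilin Q).Nondegenerate)
    (h : Fintype.card ι ≠ 4) : Gen Q := by
  intro g
  obtain ⟨l, hl, hg⟩ := exists_list_reflectionMatrix Q hQ (Or.inr h) g
  exact ⟨l, hl, eq_prod_reflElt Q g l hg⟩

theorem main (Q : QuadraticForm (ZMod 2) (ι → ZMod 2)) (hQ : (polarBilin Q).Nondegenerate)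
    (hn : 3 ≤ Fintype.card ι) (hG : Gen Q) (hC : Clo Q)
    (f : ↥(Cfsg.Omega (ZMod 2) ⇑Q) → (ι → ZMod 2))
    (hf : ∀ g h : ↥(Cfsg.Omega (ZMod 2) ⇑Q), f (g * h) = f g +
      Matrix.mulVec (((g : ↥(Cfsg.isometryGroup (ZMod 2) ⇑Q)) : GL ι (ZMod 2)) : Matrix ι ι (ZMod 2)) (f h)) :
    ∃ v : ι → ZMod 2, ∀ g : ↥(Cfsg.Omega (ZMod 2) ⇑Q), f g =
      Matrix.mulVec (((g : ↥(Cfsg.isometryGroup (ZMod 2) ⇑Q)) : GL ι (ZMod 2)) : Matrix ι ι (ZMod 2)) v - v := by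
  obtain ⟨u₀, hu₀⟩ := exists_nonsingular hQ (by rw [Module.finrank_fintype_fun_eq_card]; omega)
  have hN : (Cfsg.Omega (ZMod 2) ⇑Q).Normal := by
    unfold Cfsg.Omega
    infer_instance
  exact ext_principal (act Q) (act_one Q) (act_mul Q) (act_add Q) add_self_V
    (Cfsg.Omega (ZMod 2) ⇑Q) hN (reflElt Q u₀) (reflElt_mul_self Q u₀) (cover_Omega hQ hG hu₀)
    (fix_Omega hQ hn) (fun F hF => principal_O hQ hG hC F hF) f hf

theorem aniso : ∀ z₁ z₂ : ZMod 2, z₁ ^ 2 + 1 * z₁ * z₂ + 1 * z₂ ^ 2 = 0 → z₁ = 0 ∧ z₂ = 0 := by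
  decide

end Cfsg.Agent.Lib.Helper44.H1
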